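import Cfsg.Agent.Eq.Def_KGroupFacts
import Mathlib

/-!
# Transferring a cocycle from a trivial-intersection Sylow 2-subgroup

A cocycle on a Sylow 2-subgroup `P` meeting its other conjugates trivially, whose commutator pairing
is invariant under fusion, gives a stem extension of the whole group.
-/

set_option autoImplicit false
open scoped commutatorElement

namespace CfsgLib.SuzukiEight

universe u

variable {G : Type u} [Group G] {V : Type} [AddCommGroup V]

/-- A normalised 2-cocycle with trivial action. -/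
structure Cocycle (G : Type u) [Group G] (V : Type) [AddCommGroup V] where
  /-- The function. -/
  f : G → G → V
  /-- Normalisation. -/
  one_left : ∀ g, f 1 g = 0
  /-- Normalisation. -/
  one_right : ∀ g, f g 1 = 0
  /-- The cocycle identity. -/
  assoc : ∀ g h k, f g h + f (g * h) k = f g (h * k) + f h k

/-- The central extension of a cocycle. -/
@[ext] structure Ext (c : Cocycle G V) : Type u where
  /-- The image in `G`. -/
  base : G
  /-- The central coordinate. -/
  val : V

variable {c : Cocycle G V}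

instance : Mul (Ext c) := ⟨fun x y => ⟨x.base * y.base, x.val + y.val + c.f x.base y.base⟩⟩
instance : One (Ext c) := ⟨⟨1, 0⟩⟩
instance : Inv (Ext c) := ⟨fun x => ⟨x.base⁻¹, -x.val - c.f x.base⁻¹ x.base⟩⟩

theorem mul_def (x y : Ext c) :
    x * y = ⟨x.base * y.base, x.val + y.val + c.f x.base y.base⟩ := rfl

theorem one_def : (1 : Ext c) = ⟨1, 0⟩ := rfl

instance : Group (Ext c) := Group.ofLeftAxioms
  (fun x y z => by
    simp only [mul_def, Ext.mk.injEq]
    refine ⟨mul_assoc _ _ _, ?_⟩
    calc x.val + y.val + c.f x.base y.base + z.val + c.f (x.base * y.base) z.base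
        = x.val + y.val + z.val + (c.f x.base y.base + c.f (x.base * y.base) z.base) := by abel
      _ = _ := by rw [c.assoc]; abel)
  (fun x => by simp [mul_def, one_def, c.one_left])
  (fun x => by
    show (⟨x.base⁻¹, -x.val - c.f x.base⁻¹ x.base⟩ : Ext c) * x = 1
    simp only [mul_def, one_def, Ext.mk.injEq]
    exact ⟨inv_mul_cancel _, by abel⟩)

instance [Finite G] [Finite V] : Finite (Ext c) :=
  Finite.of_injective (fun x : Ext c => (x.base, x.val)) fun x y h => by
    cases x; cases y; simp_all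

/-- The projection. -/
def proj (c : Cocycle G V) : Ext c →* G where
  toFun x := x.base
  map_one' := rfl
  map_mul' _ _ := rfl

theorem ker_proj_le_center : (proj c).ker ≤ Subgroup.center (Ext c) := by
  rintro ⟨b, v⟩ (h : b = 1)
  subst h
  refine Subgroup.mem_center_iff.2 fun y => ?_
  simp only [mul_def, Ext.mk.injEq]
  exact ⟨by simp, by simp [c.one_left, c.one_right, add_comm]⟩

/-- The kernel of the projection. -/
def kerEquiv (c : Cocycle G V) : (proj c).ker ≃* Multiplicative V where
  toFun x := Multiplicative.ofAdd x.1.val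
  invFun v := ⟨⟨1, v.toAdd⟩, rfl⟩
  left_inv := by
    rintro ⟨⟨b, v⟩, h⟩
    obtain rfl : b = 1 := h
    rfl
  right_inv v := rfl
  map_mul' := by
    rintro ⟨⟨b, v⟩, h⟩ ⟨⟨b', v'⟩, h'⟩
    obtain rfl : b = 1 := h
    obtain rfl : b' = 1 := h'
    show Multiplicative.ofAdd (v + v' + c.f 1 1) = _
    rw [c.one_left, add_zero]
    rfl

theorem commutator_lift {a b : G} (hab : a * b = b * a) :
    ⁅(⟨a, 0⟩ : Ext c), (⟨b, 0⟩ : Ext c)⁆ = ⟨1, c.f a b - c.f b a⟩ := by
  rw [commutatorElement_def, mul_inv_eq_iff_eq_mul, mul_inv_eq_iff_eq_mul]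
  simp only [mul_def, Ext.mk.injEq, one_mul, c.one_left]
  exact ⟨hab, by abel⟩

/-- If the pairing of commuting pairs takes every value, the extension is a stem extension. -/
theorem isStemExtension_proj (h : ∀ v : V, ∃ a b : G, a * b = b * a ∧ c.f a b - c.f b a = v) :
    Cfsg.IsStemExtension (proj c) := by
  refine ⟨fun g => ⟨⟨g, 0⟩, rfl⟩, ker_proj_le_center, ?_⟩
  rintro ⟨b, v⟩ (hb : b = 1)
  subst hb
  obtain ⟨a, b, hab, rfl⟩ := h v
  rw [← commutator_lift hab]
  exact Subgroup.commutator_mem_commutator (Subgroup.mem_top _) (Subgroup.mem_top _)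

section transfer

variable (P : Subgroup G)

/-- The value of the cocycle of a transversal at `g` and `x`. -/
def slip (t : G ⧸ P → G) (ht : ∀ x, (t x : G ⧸ P) = x) (g : G) (x : G ⧸ P) : P :=
  ⟨(t (g • x))⁻¹ * g * t x, by
    rw [mul_assoc, ← QuotientGroup.eq, ht]
    conv_lhs => rw [← ht x]
    rfl⟩

theorem slip_mul (t : G ⧸ P → G) (ht : ∀ x, (t x : G ⧸ P) = x) (g h : G) (x : G ⧸ P) :
    slip P t ht (g * h) x = slip P t ht g (h • x) * slip P t ht h x := by
  apply Subtype.ext
  simp only [slip, Subgroup.coe_mul, mul_smul]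
  group

theorem slip_one (t : G ⧸ P → G) (ht : ∀ x, (t x : G ⧸ P) = x) (x : G ⧸ P) :
    slip P t ht 1 x = 1 := by
  apply Subtype.ext
  simp [slip]

/-- The transferred cocycle. -/
def transfer [Fintype (G ⧸ P)] (t : G ⧸ P → G) (ht : ∀ x, (t x : G ⧸ P) = x) (d : Cocycle P V) :
    Cocycle G V where
  f g h := ∑ x, d.f (slip P t ht g (h • x)) (slip P t ht h x)
  one_left g := Finset.sum_eq_zero fun x _ => by rw [slip_one, d.one_left]
  one_right g := Finset.sum_eq_zero fun x _ => by rw [slip_one, d.one_right]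
  assoc g h k := by
    have h1 : ∑ x, d.f (slip P t ht g (h • x)) (slip P t ht h x) =
        ∑ x, d.f (slip P t ht g (h • k • x)) (slip P t ht h (k • x)) :=
      (Fintype.sum_equiv (MulAction.toPerm k) _ _ fun x => rfl).symm
    rw [h1, ← Finset.sum_add_distrib, ← Finset.sum_add_distrib]
    refine Finset.sum_congr rfl fun x _ => ?_
    rw [slip_mul, slip_mul, mul_smul, d.assoc]

/-- A trivial-intersection Sylow 2-subgroup with a fusion invariant pairing gives a stem extension. -/
theorem exists_stem [Finite G] [Finite V] (hP : IsPGroup 2 P) (hidx : ¬ 2 ∣ P.index)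
    (hTI : ∀ g : G, ∀ p ∈ P, p ≠ 1 → g⁻¹ * p * g ∈ P → ∀ q ∈ P, g⁻¹ * q * g ∈ P)
    (h2 : ∀ v : V, v + v = 0) (d : Cocycle P V)
    (hpair : ∀ v : V, ∃ a b : G, a ∈ P ∧ b ∈ P ∧ a * b = b * a ∧
      ∀ (g : G) (ha : g⁻¹ * a * g ∈ P) (hb : g⁻¹ * b * g ∈ P),
        d.f ⟨_, ha⟩ ⟨_, hb⟩ - d.f ⟨_, hb⟩ ⟨_, ha⟩ = v) :
    ∃ (Γ : Type u) (_ : Group Γ) (_ : Finite Γ) (σ : Γ →* G),
      Cfsg.IsStemExtension σ ∧ Nonempty (σ.ker ≃* Multiplicative V) := by
  classical
  haveI : Fact (Nat.Prime 2) := ⟨Nat.prime_two⟩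
  haveI := Fintype.ofFinite (G ⧸ P)
  let Fixed : G ⧸ P → Prop := fun x => ∀ p : P, (p : G) • x = x
  -- a point moved by `P` is moved by every nontrivial element
  have hfree : ∀ x, ¬ Fixed x → ∀ p : P, (p : G) • x = x → p = 1 := by
    intro x hx p hp
    by_contra hp1
    refine hx fun q => ?_
    have key : ∀ r : G, r • x = x ↔ x.out⁻¹ * r * x.out ∈ P := fun r => by
      conv_lhs => rw [← QuotientGroup.out_eq' x, eq_comm]
      rw [show r • ((x.out : G) : G ⧸ P) = ((r * x.out : G) : G ⧸ P) from rfl, QuotientGroup.eq,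
        mul_assoc]
    exact (key _).2 (hTI _ _ p.2 (fun h => hp1 (Subtype.ext h)) ((key _).1 hp) _ q.2)
  -- a transversal following the orbits
  let r : G ⧸ P → G ⧸ P := fun x => (Quotient.mk (MulAction.orbitRel P (G ⧸ P)) x).out
  have hr : ∀ x, ∃ q : P, (q : G) • r x = x := fun x => by
    have : MulAction.orbitRel P (G ⧸ P) (r x) x := Quotient.mk_out (s := MulAction.orbitRel P (G ⧸ P)) x
    obtain ⟨q, hq⟩ := MulAction.orbitRel_apply.1 this
    exact ⟨q⁻¹, show (q : G)⁻¹ • r x = x by rw [← hq]; exact inv_smul_smul (q : G) x⟩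
  choose q hq using hr
  let t : G ⧸ P → G := fun x => q x * (r x).out
  have ht : ∀ x, (t x : G ⧸ P) = x := fun x => by
    show ((q x : G) • (((r x).out : G) : G ⧸ P)) = x
    rw [QuotientGroup.out_eq']; exact hq x
  have hslip : ∀ x, ¬ Fixed x → ∀ p : P, slip P t ht (p : G) x = 1 := by
    intro x hx p
    have hrx : r ((p : G) • x) = r x := by
      show (Quotient.mk _ ((p : G) • x)).out = _
      rw [Quotient.sound (show MulAction.orbitRel P (G ⧸ P) ((p : G) • x) x from
        MulAction.orbitRel_apply.2 ⟨p, rfl⟩)]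
    have hnf : ¬ Fixed (r x) := fun h => hx (by
      have e : x = r x := (hq x).symm.trans (h (q x))
      rw [e]; exact h)
    have h1 := hfree _ hnf ((q x)⁻¹ * p⁻¹ * q ((p : G) • x)) (by
      rw [Subgroup.coe_mul, Subgroup.coe_mul, mul_smul, mul_smul]
      conv_lhs => arg 2; arg 2; rw [← hrx]
      rw [hq, InvMemClass.coe_inv, InvMemClass.coe_inv, inv_smul_smul, inv_smul_eq_iff, hq])
    have h2' : (q ((p : G) • x) : G) = p * q x := by
      have := congrArg Subtype.val (eq_mul_of_inv_mul_eq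
        (show (p * q x)⁻¹ * q ((p : G) • x) = 1 by rw [mul_inv_rev]; exact h1))
      simpa using this
    apply Subtype.ext
    show (t ((p : G) • x))⁻¹ * p * t x = 1
    simp only [t, hrx, h2']
    group
  refine ⟨Ext (transfer P t ht d), inferInstance, inferInstance, proj _,
    isStemExtension_proj fun v => ?_, ⟨kerEquiv _⟩⟩
  obtain ⟨a, b, ha, hb, hab, hv⟩ := hpair v
  refine ⟨a, b, hab, ?_⟩
  show (∑ x, d.f _ _) - (∑ x, d.f _ _) = v
  rw [← Finset.sum_sub_distrib, Finset.sum_congr rfl (g := fun x => if Fixed x then v else 0) ?_,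
    ← Finset.sum_filter, Finset.sum_const]
  · have hfix : MulAction.fixedPoints P (G ⧸ P) = {x | Fixed x} := rfl
    have hmod := hP.card_modEq_card_fixedPoints (G ⧸ P)
    rw [hfix, ← Subgroup.index_eq_card, Nat.card_eq_fintype_card, Fintype.card_subtype] at hmod
    simp only [Set.mem_ofPred_eq] at hmod
    have hodd : (Finset.univ.filter Fixed).card % 2 = 1 := by
      have h' : P.index % 2 = (Finset.univ.filter Fixed).card % 2 := hmod
      rw [← h']; omega
    rw [← Nat.div_add_mod (Finset.univ.filter Fixed).card 2, hodd, add_nsmul, mul_comm,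
      mul_nsmul', two_nsmul, h2, smul_zero, zero_add, one_nsmul]
  · intro x _
    by_cases hx : Fixed x
    · rw [if_pos hx]
      have hxa : a • x = x := hx ⟨a, ha⟩
      have hxb : b • x = x := hx ⟨b, hb⟩
      rw [hxa, hxb]
      have ea := (slip P t ht a x).2
      have eb := (slip P t ht b x).2
      simp only [slip, hxa, hxb] at ea eb ⊢
      exact hv (t x) ea eb
    · rw [if_neg hx, hslip x hx ⟨a, ha⟩, hslip x hx ⟨b, hb⟩, d.one_right, d.one_right, sub_zero]

end transfer

end CfsgLib.SuzukiEight
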