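import Cfsg.Agent.SuzukiEight.Transfer
import Cfsg.Agent.Suzuki.Borel
import Cfsg.Agent.Suzuki.AutSylowTwo

/-!
# The field with eight elements and the four-group valued cocycle on the translations
-/

set_option autoImplicit false

namespace CfsgLib.SuzukiEight

/-- Coordinates in the basis `1, w, w ^ 2`, where `w ^ 3 = w + 1`. -/
abbrev Coord : Type := ZMod 2 × ZMod 2 × ZMod 2

/-- The product in coordinates. -/
def cmul (x y : Coord) : Coord :=
  (x.1 * y.1 + (x.2.1 * y.2.2 + x.2.2 * y.2.1),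
    x.1 * y.2.1 + x.2.1 * y.1 + (x.2.1 * y.2.2 + x.2.2 * y.2.1) + x.2.2 * y.2.2,
    x.1 * y.2.2 + x.2.1 * y.2.1 + x.2.2 * y.1 + x.2.2 * y.2.2)

/-- The square in coordinates. -/
def csq (x : Coord) : Coord := cmul x x

/-- A function whose coboundary is the trilinear form. -/
def gfun (a c : Coord) : ZMod 2 × ZMod 2 :=
  (a.1 * a.2.1 * (c.1 + c.2.1 + c.2.2) + a.1 * a.2.2 * (c.1 + c.2.1) + a.1 * c.1 * c.2.2
      + a.2.1 * a.2.2 * (c.2.1 + c.2.2) + a.2.1 * c.1 * c.2.1 + a.2.2 * c.1 * c.2.2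
      + a.2.2 * c.2.1 * c.2.2,
    a.1 * a.2.1 * c.1 + a.1 * a.2.2 * c.2.2 + a.1 * c.1 * c.2.1 + a.1 * c.1 * c.2.2
      + a.1 * c.2.1 * c.2.2 + a.2.1 * a.2.2 * (c.1 + c.2.1) + a.2.1 * c.1 * c.2.1
      + a.2.1 * c.2.1 * c.2.2 + a.2.2 * c.2.1 * c.2.2)

theorem gfun_coboundary : ∀ a c e : Coord,
    gfun a c + gfun (a + c) e + gfun c e + gfun a (c + e) =
      (cmul (cmul (csq (csq a)) c) (csq e)).2 := by
  decide +kernel

theorem gfun_zero : ∀ a : Coord, gfun 0 a = 0 ∧ gfun a 0 = 0 := by decide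

theorem cmul_inv : ∀ x : Coord, x ≠ 0 → ∃ y, cmul x y = (1, 0, 0) := by decide

variable {F : Type*} [Field F] [Fintype F] [CharP F 2]

theorem exists_root (hF : Fintype.card F = 8) : ∃ w : F, w ^ 3 = w + 1 := by
  classical
  obtain ⟨x, -, hx⟩ := Finset.exists_mem_notMem_of_card_lt_card
    (show ({0, 1} : Finset F).card < (Finset.univ : Finset F).card from
      lt_of_le_of_lt Finset.card_le_two (by rw [Finset.card_univ, hF]; norm_num))
  simp only [Finset.mem_insert, Finset.mem_singleton, not_or] at hx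
  obtain ⟨hx0, hx1⟩ := hx
  have h7 : x ^ 7 = 1 := by
    have := FiniteField.pow_card_sub_one_eq_one x hx0
    rwa [hF] at this
  have h2 : (2 : F) = 0 := CharTwo.two_eq_zero
  have hmul : (x - 1) * ((x ^ 3 + x + 1) * (x ^ 3 + x ^ 2 + 1)) = 0 := by
    linear_combination h7 + ((x - 1) * x ^ 3) * h2
  rcases mul_eq_zero.1 ((mul_eq_zero.1 hmul).resolve_left (sub_ne_zero.2 hx1)) with h | h
  · exact ⟨x, by linear_combination h - (x + 1) * h2⟩
  · refine ⟨x⁻¹, ?_⟩
    have hu : x * x⁻¹ = 1 := mul_inv_cancel₀ hx0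
    linear_combination (x⁻¹) ^ 3 * h - (1 + x⁻¹) * h2
      - ((x * x⁻¹) ^ 2 + x * x⁻¹ + 1 + x⁻¹ * (x * x⁻¹ + 1)) * hu

/-- Multiplicative coordinates on the field with eight elements. -/
theorem exists_coord (hF : Fintype.card F = 8) : ∃ E : Coord ≃+ F,
    (∀ x y, E (cmul x y) = E x * E y) ∧ E (1, 0, 0) = 1 := by
  obtain ⟨w, hw⟩ := exists_root hF
  have h2 : (2 : F) = 0 := CharTwo.two_eq_zero
  let ι := ZMod.castHom (dvd_refl 2) F
  let Φ : Coord →+ F := AddMonoidHom.mk' (fun x => ι x.1 + ι x.2.1 * w + ι x.2.2 * w ^ 2)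
    fun x y => by simp only [Prod.fst_add, Prod.snd_add, map_add]; ring
  have hmul : ∀ x y, Φ (cmul x y) = Φ x * Φ y := by
    intro x y
    simp only [Φ, cmul, AddMonoidHom.mk'_apply, map_add, map_mul]
    linear_combination -(ι x.2.1 * ι y.2.2 + ι x.2.2 * ι y.2.1 + ι x.2.2 * ι y.2.2 * w) * hw
  have hone : Φ (1, 0, 0) = 1 := by simp [Φ]
  have hinj : Function.Injective Φ := by
    rw [injective_iff_map_eq_zero]
    intro x hx
    by_contra hne
    obtain ⟨y, hy⟩ := cmul_inv x hne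
    have := hmul x y
    rw [hy, hone, hx, zero_mul] at this
    exact one_ne_zero this
  have hbij : Function.Bijective Φ := by
    rw [Fintype.bijective_iff_injective_and_card]
    exact ⟨hinj, by rw [hF]; rfl⟩
  exact ⟨AddEquiv.ofBijective Φ hbij, hmul, hone⟩

open CfsgLib.Suzuki in
/-- The four-group valued cocycle on the translations. -/
theorem exists_cocycle (hF : Fintype.card F = 8) {θ : F →+* F} (hθ : ∀ x, θ x = x ^ 4)
    (hT : TitsEndo θ) (E : Coord ≃+ F) (hE : ∀ x y, E (cmul x y) = E x * E y) :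
    ∃ d : Cocycle (uGrp hT) (ZMod 2 × ZMod 2), ∀ a b e,
      d.f (uU hT a b) (uU hT 0 e) - d.f (uU hT 0 e) (uU hT a b) = (E.symm (a ^ 2 * e)).2 := by
  have hchar : ∀ v : ZMod 2 × ZMod 2, v + v = 0 := by decide
  have hsym : ∀ x y, E.symm (x * y) = cmul (E.symm x) (E.symm y) := fun x y => by
    apply E.injective
    rw [hE, AddEquiv.apply_symm_apply, AddEquiv.apply_symm_apply, AddEquiv.apply_symm_apply]
  let φ : F →+ ZMod 2 × ZMod 2 := (AddMonoidHom.snd _ _).comp E.symm.toAddMonoidHom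
  let g : F → F → ZMod 2 × ZMod 2 := fun a c => gfun (E.symm a) (E.symm c)
  have hg : ∀ a c e, g a c + g (a + c) e + g c e + g a (c + e) = φ (θ a * c * e ^ 2) := by
    intro a c e
    simp only [g, φ, AddMonoidHom.coe_comp, Function.comp_apply, AddEquiv.coe_toAddMonoidHom,
      AddMonoidHom.coe_snd, map_add, hθ]
    rw [show a ^ 4 * c * e ^ 2 = a * a * (a * a) * c * (e * e) by ring]
    simp only [hsym]
    exact gfun_coboundary _ _ _
  have hg0 : ∀ a, g 0 a = 0 ∧ g a 0 = 0 := fun a => by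
    simpa only [g, map_zero] using gfun_zero (E.symm a)
  have hA : ∀ a b, uA hT (uU hT a b) = a := uA_uU hT
  have hB : ∀ a b, uB hT (uU hT a b) = b := uB_uU hT
  let f : uGrp hT → uGrp hT → ZMod 2 × ZMod 2 := fun p q =>
    φ (uA hT q ^ 2 * uB hT p) + g (uA hT p) (uA hT q)
  have hf : ∀ a b c e, f (uU hT a b) (uU hT c e) = φ (c ^ 2 * b) + g a c := fun a b c e => by
    simp only [f, hA, hB]
  refine ⟨⟨f, ?_, ?_, ?_⟩, fun a b e => ?_⟩
  · intro p
    obtain ⟨a, b, rfl⟩ := uU_surj hT p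
    rw [← uU_zero hT, hf, mul_zero, map_zero, (hg0 a).1, add_zero]
  · intro p
    obtain ⟨a, b, rfl⟩ := uU_surj hT p
    rw [← uU_zero hT, hf, (hg0 a).2, add_zero]
    simp
  · intro p q r
    obtain ⟨a, b, rfl⟩ := uU_surj hT p
    obtain ⟨c, e, rfl⟩ := uU_surj hT q
    obtain ⟨s, v, rfl⟩ := uU_surj hT r
    rw [uU_mul, uU_mul, hf, hf, hf, hf]
    have h1 : (c + s) ^ 2 * b = c ^ 2 * b + s ^ 2 * b := by rw [CharTwo.add_sq]; ring
    have h2 : s ^ 2 * (b + e + θ a * c) = s ^ 2 * b + s ^ 2 * e + θ a * c * s ^ 2 := by ring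
    rw [h1, h2, map_add, map_add, map_add, ← hg a c s]
    have key : ∀ p q r u x y z : ZMod 2 × ZMod 2,
        p + z + (q + r + (z + x + y + u) + x) = p + q + u + (r + y) := fun p q r u x y z => by
      calc p + z + (q + r + (z + x + y + u) + x)
          = p + q + u + (r + y) + ((z + z) + (x + x)) := by abel
        _ = _ := by rw [hchar, hchar]; simp
    exact key _ _ _ _ _ _ _
  · show f _ _ - f _ _ = _
    rw [hf, hf, (hg0 a).1, (hg0 a).2]
    have neg : ∀ v : ZMod 2 × ZMod 2, -v = v := by decide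
    simp [φ, sub_eq_add_neg, neg]

end CfsgLib.SuzukiEight
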