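import Cfsg.Agent.Eq.Def_KGroupFacts
import Cfsg.Agent.Schur.SuzukiKernel
import Cfsg.Agent.SuzukiEight.Cocycle
import Cfsg.Agent.SuzukiAut.OddSylow

/-!
# The multiplier of the Suzuki group over eight elements is a four-group
-/

set_option autoImplicit false

namespace CfsgLib.SuzukiEight

open CfsgLib.Suzuki Subgroup
open scoped commutatorElement

universe u v

variable {F : Type v} [Field F] [Fintype F] [CharP F 2] {θ : F →+* F}

theorem kernel_bound (hF : Fintype.card F = 8) (hθ : ∀ x, θ x = x ^ 4) (hT : TitsEndo θ)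
    (E : Coord ≃+ F) (hE1 : E (1, 0, 0) = 1) {Γ : Type u} [Group Γ] [Finite Γ] {σ : Γ →* grp θ}
    (hσ : Cfsg.IsStemExtension σ) :
    ∃ π : Multiplicative (ZMod 2 × ZMod 2) →* σ.ker, Function.Surjective π := by
  classical
  obtain ⟨C, hmem, hC, addL, addR, hinv⟩ := CfsgLib.Schur.exists_transPairing hT (by omega) hσ.1 hσ.2.1
  -- the pairing is a function of `a ^ 2 * b`
  have hC0 : ∀ b, C 0 b = 1 := fun b => by
    have := addL 0 0 b
    rw [add_zero] at this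
    exact left_eq_mul.1 this
  have hC0' : ∀ a, C a 0 = 1 := fun a => by
    have := addR a 0 0
    rw [add_zero] at this
    exact left_eq_mul.1 this
  have hred : ∀ a b, C a b = C 1 (a ^ 2 * b) := by
    intro a b
    by_cases ha : a = 0
    · rw [ha, hC0, zero_pow two_ne_zero, zero_mul, hC0']
    · have h8 : a ^ 8 = a := by have := FiniteField.pow_card a; rwa [hF] at this
      rw [← hinv (Units.mk0 ((a⁻¹) ^ 2) (pow_ne_zero 2 (inv_ne_zero ha))) a b]
      simp only [Units.val_mk0, hθ, ← pow_mul, inv_pow]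
      have e1 : (a ^ 8)⁻¹ * a = 1 := by rw [h8, inv_mul_cancel₀ ha]
      have e2 : (a ^ 4)⁻¹ * (a ^ 8)⁻¹ = a ^ 2 := by
        rw [h8, ← mul_inv]
        refine inv_eq_of_mul_eq_one_right (mul_right_cancel₀ ha ?_)
        linear_combination h8
      rw [e1, e2]
  have hC11 : C 1 1 = 1 := by
    obtain ⟨x, hx⟩ := hσ.1 (uElt hT 1 0)
    rw [← hC 1 1 x (x * x) hx (by rw [map_mul, hx, uElt_mul]; simp [CharTwo.add_self_eq_zero])]
    exact commutatorElement_eq_one_iff_mul_comm.2 (mul_assoc _ _ _).symm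
  let ψ : Multiplicative (ZMod 2 × ZMod 2) →* σ.ker := MonoidHom.mk'
    (fun v => ⟨C 1 (E (0, v.toAdd)), hmem _ _⟩) fun v w => Subtype.ext (by
      show C 1 (E (0, v.toAdd + w.toAdd)) = _
      rw [show ((0 : ZMod 2), v.toAdd + w.toAdd) = (0, v.toAdd) + (0, w.toAdd) by simp, map_add,
        addR]
      rfl)
  let K₀ : Subgroup Γ := (σ.ker.subtype.comp ψ).range
  have hCK : ∀ a b, C a b ∈ K₀ := by
    intro a b
    rw [hred]
    obtain ⟨⟨p, v⟩, hpv⟩ := E.surjective (a ^ 2 * b)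
    refine ⟨Multiplicative.ofAdd v, ?_⟩
    show C 1 (E (0, v)) = _
    rw [← hpv, show ((p, v) : Coord) = (p, 0) + (0, v) by simp, map_add, addR]
    rcases (by decide : ∀ p : ZMod 2, p = 0 ∨ p = 1) p with rfl | rfl
    · rw [show ((0, 0) : Coord) = 0 from rfl, map_zero, hC0', one_mul]
    · rw [show ((1, 0) : Coord) = (1, 0, 0) from rfl, hE1, hC11, one_mul]
  have hK : K₀ ≤ σ.ker := by
    rintro _ ⟨v, rfl⟩
    exact (ψ v).2
  haveI : K₀.Normal := ⟨fun n hn g => by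
    rwa [mem_center_iff.1 (hσ.2.1 (hK hn)) g, mul_inv_cancel_right]⟩
  let τ : Γ ⧸ K₀ →* grp θ := QuotientGroup.lift K₀ σ hK
  have hτ : Cfsg.IsStemExtension τ := by
    refine ⟨fun g => ?_, fun x hx => ?_, fun x hx => ?_⟩
    · obtain ⟨y, rfl⟩ := hσ.1 g
      exact ⟨(y : Γ ⧸ K₀), rfl⟩
    · obtain ⟨y, rfl⟩ := QuotientGroup.mk_surjective x
      refine mem_center_iff.2 fun z => ?_
      obtain ⟨z, rfl⟩ := QuotientGroup.mk_surjective z
      rw [← QuotientGroup.mk_mul, mem_center_iff.1 (hσ.2.1 (show σ y = 1 from hx)) z,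
        QuotientGroup.mk_mul]
    · obtain ⟨y, rfl⟩ := QuotientGroup.mk_surjective x
      have := mem_map_of_mem (QuotientGroup.mk' K₀) (hσ.2.2 (show σ y = 1 from hx))
      rw [_root_.commutator_def, map_commutator] at this
      exact commutator_mono le_top le_top this
  have hcard : Nat.card τ.ker = 1 := by
    refine Nat.eq_one_iff_not_exists_prime_dvd.2 fun p hp => ?_
    haveI : Fact p.Prime := ⟨hp⟩
    by_cases hp2 : p = 2
    · subst hp2
      refine CfsgLib.Schur.suzuki_not_two_dvd_ker_of_commute hT (by omega) hτ fun a b x y hx hy => ?_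
      obtain ⟨x, rfl⟩ := QuotientGroup.mk_surjective x
      obtain ⟨y, rfl⟩ := QuotientGroup.mk_surjective y
      rw [← QuotientGroup.mk'_apply, ← QuotientGroup.mk'_apply, ← map_commutatorElement,
        QuotientGroup.mk'_apply, QuotientGroup.eq_one_iff, hC a b x y hx hy]
      exact hCK a b
    · obtain ⟨H, hH, hidx⟩ := CfsgLib.SuzukiAut.exists_cyclic_index_not_dvd hT hp2
      haveI := hH
      exact CfsgLib.Schur.not_dvd_card_ker_of_isCyclic hτ H hidx
  refine ⟨ψ, fun k => ?_⟩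
  have hk : ((k : Γ) : Γ ⧸ K₀) ∈ τ.ker := k.2
  rw [(eq_bot_iff_card _).2 hcard, mem_bot, QuotientGroup.eq_one_iff] at hk
  obtain ⟨v, hv⟩ := hk
  exact ⟨v, Subtype.ext hv⟩

theorem stem_exists (hF : Fintype.card F = 8) (hθ : ∀ x, θ x = x ^ 4) (hT : TitsEndo θ) :
    ∃ (Γ : Type v) (_ : Group Γ) (_ : Finite Γ) (σ : Γ →* grp θ),
      Cfsg.IsStemExtension σ ∧ Nonempty (σ.ker ≃* Multiplicative (ZMod 2 × ZMod 2)) := by
  obtain ⟨E, hE, hE1⟩ := exists_coord hF
  obtain ⟨d, hd⟩ := exists_cocycle hF hθ hT E hE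
  have hTI : ∀ g : grp θ, ∀ p ∈ uGrp hT, p ≠ 1 → g⁻¹ * p * g ∈ uGrp hT →
      ∀ q ∈ uGrp hT, g⁻¹ * q * g ∈ uGrp hT := fun g p hp hp1 h q hq => by
    simpa using conj_mem_uGrp hT (inv_mem (mem_stabInf_of_conj hT hp hp1 h)) hq
  refine exists_stem (uGrp hT) (isPGroup_uGrp hT) (not_two_dvd_index hT) hTI (by decide) d
    fun v => ?_
  by_cases hv : v = 0
  · refine ⟨1, 1, one_mem _, one_mem _, rfl, fun g ha hb => ?_⟩
    rw [hv, sub_eq_zero]
  refine ⟨uElt hT 1 0, uElt hT 0 (E (0, v)), uElt_mem hT _ _, uElt_mem hT _ _,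
    by rw [uElt_mul, uElt_mul]; congr 1 <;> simp, fun g ha hb => ?_⟩
  have hg : g ∈ stabInf θ := mem_stabInf_of_conj hT (uElt_mem hT 1 0) (uElt_ne_one hT) ha
  obtain ⟨a, b, t, hgi⟩ := exists_of_mem_stabInf hT (inv_mem hg)
  have key : ∀ x, g⁻¹ * x * g = uElt hT a b * (tElt hT t * x * (tElt hT t)⁻¹) * (uElt hT a b)⁻¹ :=
    fun x => by rw [← inv_inv g, inv_inv g⁻¹, hgi]; group
  obtain ⟨c, hca⟩ : ∃ c, g⁻¹ * uElt hT 1 0 * g = uElt hT (θ t) c := by
    refine ⟨b + (-b + θ a * a) + θ (a + θ t) * -a + θ a * θ t, ?_⟩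
    rw [key, tElt_conj_uElt, mul_one, mul_zero, uElt_inv, uElt_mul, uElt_mul, uElt_inj]
    exact ⟨by ring, by ring⟩
  have hcb : g⁻¹ * uElt hT 0 (E (0, v)) * g = uElt hT 0 ((t : F) ^ 2 * θ t * E (0, v)) := by
    rw [key, tElt_conj_central, uElt_inv, uElt_mul, uElt_mul, uElt_inj]
    simp only [add_zero, CharTwo.neg_eq]
    exact ⟨CharTwo.add_self_eq_zero a, by linear_combination (b + θ a * a) * CharTwo.two_eq_zero (R := F)⟩
  have e : d.f ⟨_, ha⟩ ⟨_, hb⟩ - d.f ⟨_, hb⟩ ⟨_, ha⟩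
      = d.f (uU hT (θ t) c) (uU hT 0 ((t : F) ^ 2 * θ t * E (0, v))) -
        d.f (uU hT 0 ((t : F) ^ 2 * θ t * E (0, v))) (uU hT (θ t) c) := by
    simp only [uU, hca, hcb]
  rw [e, hd, hθ]
  have ht7 : (t : F) ^ 7 = 1 := by
    have := FiniteField.pow_card_sub_one_eq_one (t : F) t.ne_zero
    rwa [hF] at this
  rw [show ((t : F) ^ 4) ^ 2 * ((t : F) ^ 2 * (t : F) ^ 4 * E (0, v)) = E (0, v) by
      linear_combination E (0, v) * ((t : F) ^ 7 + 1) * ht7, E.symm_apply_apply]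

end CfsgLib.SuzukiEight
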